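import Mathlib
import Cfsg.Agent.Lib.Helper86.IP.Defs
import Cfsg.Agent.Lib.Helper75.CliffordCorr
import Cfsg.Agent.Lib.Helper75.FullyRam
import Cfsg.Agent.Lib.Helper80.CharKer

/-!
# S4463 team project, package [CLIFF]

`D` normal in `Y`, `ψ ∈ Irr(Y)` vanishing off `D`: then `|Y : D|` divides `ψ(1)²`.
-/

set_option autoImplicit false
set_option linter.style.haveILetI false

namespace Cfsg.Agent.Lib.Helper97.IP

open scoped ComplexConjugate
open Cfsg.Agent.Lib

universe u

/-- `D` normal in `Y`, `ψ` irreducible vanishing off `D`: `|Y : D| ∣ ψ(1)²`; more precisely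
`ψ(1)² = |Y : D| · (t · θ(1)²)`. -/
theorem cliff_core {Y : Type u} [Group Y] [Finite Y] (D : Subgroup Y) [D.Normal] {ψ : Y → ℂ}
    (hψ : Cfsg.IsIrrCharacter Y ψ) (hv : ∀ y : Y, y ∉ D → ψ y = 0) :
    D.index ∣ Cfsg.charDegree ψ ^ 2 := by
  classical
  haveI : Fintype Y := Fintype.ofFinite Y
  haveI : Fintype D := Fintype.ofFinite D
  haveI : Fintype (Cfsg.IrrCharacter D) := Fintype.ofFinite _
  haveI : Fintype (Helper75.Constit D ψ) := Fintype.ofFinite _
  have hψc := Helper3.isCharacter_of_irr hψ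
  -- existence of a constituent
  have hne : Nonempty (Helper75.Constit D ψ) := by
    by_contra hemp
    rw [not_nonempty_iff] at hemp
    have h1 := congrFun (Helper75.res_eq_sum_constit D hψc) 1
    rw [Finset.univ_eq_empty, Finset.sum_empty] at h1
    exact Helper80.char_one_ne_zero hψ h1
  obtain ⟨θ0⟩ := hne
  have hθ : Cfsg.IsIrrCharacter D (θ0.1 : D → ℂ) := θ0.1.2
  have hθne : Cfsg.classInner (fun n : D => ψ n) (θ0.1 : D → ℂ) ≠ 0 := θ0.2
  obtain ⟨e, he⟩ := Helper75.classInner_char_irr_nat (Helper75.isCharacter_res D hψc) hθ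
  -- degree
  have hdeg := Helper75.res_one_eq D hψ hθ hθne
  rw [he, Helper80.char_one_eq_charDegree hψc,
    Helper80.char_one_eq_charDegree (Helper3.isCharacter_of_irr hθ)] at hdeg
  have hdegN : Cfsg.charDegree ψ =
      e * Nat.card (Helper75.Constit D ψ) * Cfsg.charDegree (θ0.1 : D → ℂ) := by
    exact_mod_cast hdeg
  -- norm of the restriction via Clifford
  have hres := Helper75.res_eq_smul_sum_constit D hψ hθ hθne
  rw [he] at hres
  have hin : Cfsg.classInner ((e : ℂ) • ∑ θ' : Helper75.Constit D ψ, (θ'.1 : D → ℂ))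
      (fun n : D => ψ n) = (e : ℂ) * ((Nat.card (Helper75.Constit D ψ) : ℂ) * (e : ℂ)) := by
    rw [Helper75.classInner_smul_left, Helper75.classInner_sum_left]
    congr 1
    have h2 : ∀ θ' : Helper75.Constit D ψ,
        Cfsg.classInner (θ'.1 : D → ℂ) (fun n : D => ψ n) = (e : ℂ) := by
      intro θ'
      obtain ⟨g, hg⟩ := Helper75.clifford_conj D hψ hθ θ'.1.2 hθne θ'.2
      rw [Helper75.classInner_conj_symm, ← hg,
        Helper75.classInner_res_conjChar D (Helper3.isClassFunction_of_isCharacter hψc), he]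
      simp
    rw [Finset.sum_congr rfl (fun θ' _ => h2 θ'), Finset.sum_const, Finset.card_univ,
      nsmul_eq_mul, ← Nat.card_eq_fintype_card]
  rw [← hres] at hin
  -- norm of the restriction via vanishing
  have hYne : (Nat.card Y : ℂ) ≠ 0 := by exact_mod_cast (Nat.card_pos (α := Y)).ne'
  have hDne : (Nat.card D : ℂ) ≠ 0 := by exact_mod_cast (Nat.card_pos (α := D)).ne'
  have hsumY : ∑ y : Y, ψ y * conj (ψ y) = (Nat.card Y : ℂ) := by
    have h1 := Helper3.classInner_irr_self hψ
    unfold Cfsg.classInner at h1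
    field_simp at h1
    exact h1
  have hsumD : ∑ d : D, ψ d * conj (ψ d) = (Nat.card Y : ℂ) := by
    rw [← hsumY, Helper75.sum_eq_sum_subgroup_add D (fun y => ψ y * conj (ψ y))]
    have h0 : ∑ g ∈ Finset.univ.filter (fun g => g ∉ D), ψ g * conj (ψ g) = 0 := by
      refine Finset.sum_eq_zero (fun g hg => ?_)
      rw [hv g (Finset.mem_filter.1 hg).2, zero_mul]
    rw [h0, add_zero]
  have hin2 : Cfsg.classInner (fun n : D => ψ n) (fun n : D => ψ n) =
      (Nat.card D : ℂ)⁻¹ * (Nat.card Y : ℂ) := by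
    unfold Cfsg.classInner
    rw [hsumD]
  have hidx : (D.index : ℂ) = (e : ℂ) * ((Nat.card (Helper75.Constit D ψ) : ℂ) * (e : ℂ)) := by
    rw [← hin, hin2]
    have hc : (Nat.card Y : ℂ) = (Nat.card D : ℂ) * (D.index : ℂ) := by
      exact_mod_cast (D.card_mul_index).symm
    rw [hc]
    field_simp
  have hidxN : D.index = e * (Nat.card (Helper75.Constit D ψ) * e) := by exact_mod_cast hidx
  rw [hdegN, hidxN]
  exact ⟨Nat.card (Helper75.Constit D ψ) * Cfsg.charDegree (θ0.1 : D → ℂ) ^ 2, by ring⟩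

/-- package [CLIFF] of the S4463 team project -/
theorem lemCliff : Cfsg.Agent.Lib.Helper86.IP.LemCliff.{u} := by
  intro Y _ _ D _ ψ hv
  exact cliff_core D ψ.2 hv

end Cfsg.Agent.Lib.Helper97.IP
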