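import Mathlib
import Cfsg.Agent.Lib.Helper86.IP.Defs
import Cfsg.Agent.Lib.Helper97.IP.Cliff
import Cfsg.Agent.Lib.Helper10.IP.LemA
import Cfsg.Agent.Lib.Helper82.BLGen

/-!
# S4463 team project, package [V]

`K ≤ N` normal in `X`, `N/K` abelian, no element of `N ∖ K` central modulo `K`,
`b(N) = b(X) = b`: then `|N : K|` divides `b²`.
-/

set_option autoImplicit false
set_option linter.style.haveILetI false

namespace Cfsg.Agent.Lib.Helper97.IP

open scoped ComplexConjugate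
open Cfsg.Agent.Lib

universe u

/-- twisting an irreducible character by a linear character gives an irreducible character -/
theorem isIrr_hom_mul {G : Type u} [Group G] [Finite G] (ω : G →* ℂˣ) {ψ : G → ℂ}
    (hψ : Cfsg.IsIrrCharacter G ψ) :
    Cfsg.IsIrrCharacter G (fun c => ((ω c : ℂˣ) : ℂ) * ψ c) := by
  classical
  haveI := Fintype.ofFinite G
  haveI : Fintype (Cfsg.IrrCharacter G) := Fintype.ofFinite _
  apply Helper80.isIrrCharacter_of_classInner_eq_one
  · exact Helper80.isCharacter_mul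
      (Helper3.isCharacter_of_irr (Helper80.isIrrCharacter_of_hom ω))
      (Helper3.isCharacter_of_irr hψ)
  · rw [Helper82.BL.classInner_hom_mul]
    exact Helper3.classInner_irr_self hψ

theorem charDegree_hom_mul {G : Type u} [Group G] (ω : G →* ℂˣ) (ψ : G → ℂ) :
    Cfsg.charDegree (fun c => ((ω c : ℂˣ) : ℂ) * ψ c) = Cfsg.charDegree ψ := by
  unfold Cfsg.charDegree
  simp

/-- package [V] of the S4463 team project -/
theorem lemV : Cfsg.Agent.Lib.Helper86.IP.LemV.{u} := by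
  intro X _ _ K N _ hNn b hKN hab hnc hX hN
  classical
  obtain ⟨ψ, hψb⟩ := hN.1
  have hbX : ∀ χ : Cfsg.IrrCharacter X, Cfsg.charDegree (χ : X → ℂ) ≤ b := fun χ => hX.2 ⟨χ, rfl⟩
  -- invariance of every irreducible character of `N` of degree `b`
  have hinv : ∀ φ : ↥N → ℂ, Cfsg.IsIrrCharacter ↥N φ → b ≤ Cfsg.charDegree φ →
      ∀ (g : X) (n : ↥N) (h : g * (n : X) * g⁻¹ ∈ N), φ ⟨g * n * g⁻¹, h⟩ = φ n := by
    intro φ hφ hdeg g n h
    obtain ⟨χ, hχ, hres⟩ := Helper10.IP.exists_irr_extension b hbX N φ hφ hdeg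
    have hcl := Helper3.isClassFunction_of_isCharacter (Helper3.isCharacter_of_irr hχ)
    have h1 := congrFun hres ⟨g * n * g⁻¹, h⟩
    have h2 := congrFun hres n
    simp only at h1 h2
    rw [← h1, ← h2]
    exact hcl n g
  -- vanishing off `K`
  have hvan : ∀ y : ↥N, y ∉ K.subgroupOf N → (ψ : ↥N → ℂ) y = 0 := by
    intro y hy
    by_contra hne
    have hyK : (y : X) ∉ K := by rwa [Subgroup.mem_subgroupOf] at hy
    obtain ⟨g, hg⟩ := hnc y y.2 hyK
    have hgN : g * (y : X) * g⁻¹ ∈ N := hNn.conj_mem y y.2 g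
    have hcK : (⟨g * y * g⁻¹, hgN⟩ * y⁻¹ : ↥N) ∉ K.subgroupOf N := by
      rw [Subgroup.mem_subgroupOf]
      simpa using hg
    have hcomm : commutator ↥N ≤ K.subgroupOf N := by
      rw [commutator_def, Subgroup.commutator_le]
      intro a _ c _
      rw [Subgroup.mem_subgroupOf, commutatorElement_def]
      simpa using hab a a.2 c c.2
    have hc1 : (Abelianization.of (⟨g * y * g⁻¹, hgN⟩ * y⁻¹ : ↥N)) ≠ 1 := by
      intro h1
      apply hcK
      apply hcomm
      exact (QuotientGroup.eq_one_iff _).1 h1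
    obtain ⟨φ, hφ⟩ := CommGroup.exists_apply_ne_one_of_hasEnoughRootsOfUnity
      (Abelianization ↥N) ℂ hc1
    let μ : ↥N →* ℂˣ := φ.comp Abelianization.of
    have hμc : μ (⟨g * y * g⁻¹, hgN⟩ * y⁻¹ : ↥N) ≠ 1 := hφ
    have htw := isIrr_hom_mul μ ψ.2
    have htwdeg : b ≤ Cfsg.charDegree (fun n => ((μ n : ℂˣ) : ℂ) * (ψ : ↥N → ℂ) n) := by
      rw [charDegree_hom_mul, hψb]
    have e1 := hinv _ htw htwdeg g y hgN
    have e2 := hinv _ ψ.2 (le_of_eq hψb.symm) g y hgN
    rw [e2] at e1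
    have e3 : ((μ ⟨g * y * g⁻¹, hgN⟩ : ℂˣ) : ℂ) = ((μ y : ℂˣ) : ℂ) := mul_right_cancel₀ hne e1
    apply hμc
    rw [map_mul, map_inv, Units.ext e3, mul_inv_cancel]
  have h := cliff_core (K.subgroupOf N) ψ.2 hvan
  rw [hψb] at h
  exact h

end Cfsg.Agent.Lib.Helper97.IP
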